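import Cfsg.Agent.Block.Height
import Cfsg.Agent.Block.Part
import Cfsg.Agent.Block.PrincBasic
import Cfsg.Agent.Char.Cyclo

/-!
A class function `n` with algebraic integer values, compatible with the Galois action, satisfies
`⟨n, n⟩ ≥ Re ⟨n, 1⟩`, because `2 n - 1` has no zero.
-/

set_option autoImplicit false

open scoped ComplexConjugate
open Cfsg Cfsg.Lib.Char Cfsg.Lib.Block

namespace Cfsg.Lib.BP21

variable {G : Type*} [Group G] [Fintype G]

/-- An integer valued function stable under powers plus a generalized character: if there is no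
zero then the mean square is at least 1. -/
theorem card_le_sum_norm_sq (s : Finset (IrrCharacter G)) (a : IrrCharacter G → ℤ) (e : G → ℤ)
    (he : ∀ m : ℕ, m.Coprime (Nat.card G) → ∀ g, e (g ^ m) = e g)
    (h0 : ∀ g, (e g : ℂ) + ∑ χ ∈ s, (a χ : ℂ) * (χ : G → ℂ) g ≠ 0) :
    (Nat.card G : ℝ) ≤ ∑ g, ‖(e g : ℂ) + ∑ χ ∈ s, (a χ : ℂ) * (χ : G → ℂ) g‖ ^ 2 := by
  classical
  have hn : Nat.card G ≠ 0 := Nat.card_pos.ne'
  have := numberField_cycField hn
  let y : IrrCharacter G → G → cycField (Nat.card G) := fun χ g =>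
    ⟨(χ : G → ℂ) g, char_mem_cycField χ.2.isCharacter hn pow_card_eq_one'⟩
  let x : G → cycField (Nat.card G) := fun g =>
    (e g : cycField (Nat.card G)) + ∑ χ ∈ s, (a χ : cycField (Nat.card G)) * y χ g
  have hx : ∀ g, (x g : ℂ) = (e g : ℂ) + ∑ χ ∈ s, (a χ : ℂ) * (χ : G → ℂ) g := by
    intro g
    simp [x, y]
  have h1 : ∀ φ : cycField (Nat.card G) →+* ℂ, ∑ g, ‖φ (x g)‖ ^ 2 =
      ∑ g, ‖(e g : ℂ) + ∑ χ ∈ s, (a χ : ℂ) * (χ : G → ℂ) g‖ ^ 2 := by
    intro φ
    obtain ⟨m, hm, hφ⟩ := exists_embedding_eq_pow hn φ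
    have h2 : ∀ g, φ (x g) =
        (e (g ^ m) : ℂ) + ∑ χ ∈ s, (a χ : ℂ) * (χ : G → ℂ) (g ^ m) := by
      intro g
      simp only [x, map_add, map_sum, map_mul, map_intCast, he m hm g]
      congr 1
      refine Finset.sum_congr rfl fun χ _ => ?_
      rw [embedding_char_eq χ.2.isCharacter hn pow_card_eq_one' φ hφ]
    simp only [h2]
    exact Fintype.sum_equiv (powCoprime hm.symm) _ _ fun _ => rfl
  have h3 : ∀ g ∈ (Finset.univ : Finset G), (Fintype.card (cycField (Nat.card G) →+* ℂ) : ℝ) ≤
      ∑ φ : cycField (Nat.card G) →+* ℂ, ‖φ (x g)‖ ^ 2 := by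
    intro g _
    apply card_le_sum_norm_sq_embedding
    · intro h
      apply h0 g
      rw [← hx, h]
      rfl
    · refine IntermediateField.coe_isIntegral_iff.mp ?_
      rw [hx]
      refine IsIntegral.add isIntegral_algebraMap (IsIntegral.sum _ fun χ _ => ?_)
      exact IsIntegral.mul isIntegral_algebraMap (IsCharacter_isIntegral χ.2.isCharacter g)
  have h4 := Finset.sum_le_sum h3
  rw [Finset.sum_comm] at h4
  simp only [h1, Finset.sum_const, nsmul_eq_mul, Finset.card_univ] at h4
  have h5 : (0 : ℝ) < Fintype.card (cycField (Nat.card G) →+* ℂ) := by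
    have : Nonempty (cycField (Nat.card G) →+* ℂ) := ⟨(cycField (Nat.card G)).val.toRingHom⟩
    exact_mod_cast Fintype.card_pos
  rw [Nat.card_eq_fintype_card]
  nlinarith

theorem two_mul_ne_one {z : ℂ} (hz : IsIntegral ℤ z) : 2 * z ≠ 1 := by
  intro h
  have h1 : z = algebraMap ℚ ℂ (1 / 2) := by
    rw [eq_ratCast]
    push_cast
    rw [eq_div_iff two_ne_zero, mul_comm, h]
  rw [h1, isIntegral_algebraMap_iff (algebraMap ℚ ℂ).injective] at hz
  obtain ⟨k, hk⟩ := IsIntegrallyClosed.isIntegral_iff.mp hz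
  rw [eq_intCast, eq_div_iff two_ne_zero] at hk
  have : k * 2 = 1 := by exact_mod_cast hk
  omega

variable {p : ℕ} [hp : Fact p.Prime] {M : Ideal AlgInt}

/-- The indicator function of the `p`-regular elements. -/
noncomputable def reg (p : ℕ) (G : Type*) [Group G] : G → ℂ := pRegularPart p fun _ => 1

theorem inSpan_reg (hM : IsPModular p M) : InSpan (principalBlock M G) (reg p G) :=
  inSpan_of_classInner (isClassFunction_pRegularPart p isIrrCharacter_one.isClassFunction)
    fun _ hχ => Ht.classInner_reg_eq_zero hM isPBlock_principalBlock'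
      (Princ.triv_mem_principalBlock hM) hχ

omit hp in
theorem reg_real (χ : IrrCharacter G) :
    classInner (reg p G) χ = ((classInner (reg p G) χ).re : ℂ) := by
  refine (Complex.conj_eq_iff_re.1 ?_).symm
  simp only [classInner, map_mul, map_inv₀, map_natCast, map_sum, Complex.conj_conj]
  congr 1
  refine Fintype.sum_equiv (Equiv.inv G) _ _ fun g => ?_
  simp only [Equiv.inv_apply, reg, pRegularPart_eq_ite, orderOf_inv,
    χ.2.isCharacter.apply_inv, Complex.conj_conj]
  split_ifs <;> simp

/-- The lattice spanned by `ℤ^B` and the coefficients of the indicator of the regular elements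
avoids the ball `|v|² < v₁`. -/
theorem ball (hM : IsPModular p M) (t : ℤ) (a : IrrCharacter G → ℤ) :
    (t : ℝ) * (classInner (reg p G) (Princ.triv G)).re + a (Princ.triv G) ≤
      ∑ χ ∈ irrFin (principalBlock M G),
        ((t : ℝ) * (classInner (reg p G) χ).re + a χ) ^ 2 := by
  classical
  set B := principalBlock M G with hB
  have htriv : Princ.triv G ∈ B := Princ.triv_mem_principalBlock hM
  let e : G → ℤ := fun g => if p ∣ orderOf g then -1 else 2 * t - 1
  let β : G → ℂ := (2 * t : ℂ) • reg p G + ∑ χ ∈ irrFin B, ((2 * a χ : ℤ) : ℂ) • (χ : G → ℂ) -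
    (Princ.triv G : G → ℂ)
  have hβ : ∀ g, β g = (e g : ℂ) + ∑ χ ∈ irrFin B, ((2 * a χ : ℤ) : ℂ) * (χ : G → ℂ) g := by
    intro g
    simp only [β, e, reg, Pi.sub_apply, Pi.add_apply, Pi.smul_apply, Finset.sum_apply,
      smul_eq_mul, pRegularPart_eq_ite, Princ.triv_apply]
    split_ifs <;> push_cast <;> ring
  have h1 := card_le_sum_norm_sq (irrFin B) (fun χ => 2 * a χ) e (fun m hm g => by
    have : orderOf (g ^ m) = orderOf g :=
      (hm.symm.coprime_dvd_left (orderOf_dvd_natCard g)).orderOf_pow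
    simp only [e, this]) (fun g h => by
    have hi : IsIntegral ℤ (((if p ∣ orderOf g then 0 else t : ℤ) : ℂ) +
        ∑ χ ∈ irrFin B, (a χ : ℂ) * (χ : G → ℂ) g) :=
      IsIntegral.add isIntegral_algebraMap (IsIntegral.sum _ fun χ _ =>
        IsIntegral.mul isIntegral_algebraMap (IsCharacter_isIntegral χ.2.isCharacter g))
    apply two_mul_ne_one hi
    rw [← sub_eq_zero, ← h, mul_add, Finset.mul_sum]
    simp only [e]
    split_ifs <;> push_cast <;> simp only [mul_assoc] <;> ring)
  simp only [← hβ] at h1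
  have hspan : InSpan B β :=
    (((inSpan_reg hM).smul _).add (inSpan_sum_irrFin _)).sub (inSpan_irr htriv)
  have h2 : ∀ χ ∈ irrFin B, classInner β χ =
      ((2 * ((t : ℝ) * (classInner (reg p G) χ).re + a χ) -
        if χ = Princ.triv G then 1 else 0 : ℝ) : ℂ) := by
    intro χ hχ
    simp only [β]
    rw [classInner_sub_left, classInner_add_left, classInner_smul_left,
      classInner_sum_irrFin _ (mem_irrFin.1 hχ), reg_real]
    split_ifs with h
    · rw [h, (Princ.triv G).2.classInner_self]
      push_cast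
      simp only [Complex.ofReal_re]
      ring
    · rw [(Princ.triv G).2.classInner_of_ne χ.2 fun e => h (Subtype.ext e).symm]
      push_cast
      simp only [Complex.ofReal_re]
      ring
  have h3' : ∑ χ ∈ irrFin B, classInner β χ * classInner (χ : G → ℂ) β =
      ((∑ χ ∈ irrFin B, (2 * ((t : ℝ) * (classInner (reg p G) χ).re + a χ) -
        if χ = Princ.triv G then 1 else 0) * (2 * ((t : ℝ) * (classInner (reg p G) χ).re + a χ) -
        if χ = Princ.triv G then 1 else 0) : ℝ) : ℂ) := by
    rw [Complex.ofReal_sum]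
    refine Finset.sum_congr rfl fun χ hχ => ?_
    rw [← conj_classInner β, h2 χ hχ, Complex.conj_ofReal, ← Complex.ofReal_mul]
  have h3 := hspan.classInner_eq_sum β
  rw [classInner_self_eq, h3', Complex.ofReal_inj] at h3
  have hc : (0 : ℝ) < Nat.card G := by exact_mod_cast Nat.card_pos
  have h4 : (1 : ℝ) ≤ (Nat.card G : ℝ)⁻¹ * ∑ g, ‖β g‖ ^ 2 := by
    rw [le_inv_mul_iff₀ hc, mul_one]
    exact h1
  have h5 : ∑ χ ∈ (irrFin B).erase (Princ.triv G),
      (2 * ((t : ℝ) * (classInner (reg p G) χ).re + a χ) -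
        if χ = Princ.triv G then 1 else 0) * (2 * ((t : ℝ) * (classInner (reg p G) χ).re + a χ) -
        if χ = Princ.triv G then 1 else 0) = 4 * ∑ χ ∈ (irrFin B).erase (Princ.triv G),
          ((t : ℝ) * (classInner (reg p G) χ).re + a χ) ^ 2 := by
    rw [Finset.mul_sum]
    refine Finset.sum_congr rfl fun χ hχ => ?_
    rw [if_neg (Finset.mem_erase.1 hχ).1]
    ring
  rw [h3, ← Finset.add_sum_erase _ _ (mem_irrFin.2 htriv), h5, if_pos rfl] at h4
  rw [← Finset.add_sum_erase _ _ (mem_irrFin.2 htriv)]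
  linarith [h4]

/-- The coefficient of the principal character is a rational number whose denominator is divisible
by the order of a Sylow subgroup. -/
theorem exists_rat (hM : IsPModular p M) :
    ∃ r : ℚ, (classInner (reg p G) (Princ.triv G)).re = r ∧
      (Nat.card G).factorization p ≤ r.den.factorization p := by
  classical
  let r : ℚ := ((Finset.univ.filter fun g : G => ¬ p ∣ orderOf g).card : ℚ) / Nat.card G
  have hr : classInner (reg p G) (Princ.triv G) = (r : ℂ) := by
    rw [Princ.coe_triv, classInner_one_right]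
    simp only [r, reg, pRegularPart_eq_ite]
    push_cast
    rw [div_eq_inv_mul, Finset.card_filter]
    push_cast
    congr 1
    refine Finset.sum_congr rfl fun g _ => ?_
    split_ifs <;> rfl
  refine ⟨r, by rw [hr, Complex.ratCast_re], ?_⟩
  have h1 := (Ht.height_zero_iff_not_ideal_cc hM isPBlock_principalBlock'
    (Princ.triv_mem_principalBlock hM) (Princ.triv_mem_principalBlock (G := G) hM)).1
    (Ht.blockHeight_one_principalBlock p)
  rw [Ht.cc_eq p _ (Princ.triv G).2.isCharacter.apply_inv] at h1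
  change ¬ MemLocalIdeal M (_ * classInner (reg p G) (Princ.triv G) / 1) at h1
  rw [hr, div_one] at h1
  by_contra hlt
  apply h1
  have h2 := (Loc.ideal_natCast_div_iff hM (n := p ^ (Nat.card G).factorization p) (m := r.den)
    (pow_ne_zero _ hp.out.ne_zero) r.den_ne_zero).2 (by
      rw [Nat.Prime.factorization_pow hp.out, Finsupp.single_eq_same]
      omega)
  have h3 := Loc.ideal_mul_left hM (Loc.ring_intCast hM r.num) h2
  convert h3 using 1
  rw [Rat.cast_def]
  push_cast
  ring

end Cfsg.Lib.BP21
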